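import Cfsg.Agent.Chev.D4Torus.Embed

/-!
# The cyclic torus of order `(q³ - 1)(q + 1)` and its centraliser
-/

set_option autoImplicit false
set_option linter.unusedSectionVars false
set_option maxRecDepth 100000

namespace CfsgLib.Chev.D4Torus

open Cfsg.Lie CfsgLib.Chev Matrix CfsgLib.Chev.Twisted

universe u

variable {L : Type u} [Field L]

/-- Conjugating a product in the rank one subgroup of the root 14 into three factors. -/
theorem sl2_word (α β : L) (e : L) (ε : Lˣ) {p₁ p₂ p₃ : L}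
    (h : (!![1, 0; β, 1] * !![1, α; 0, 1] * !![(ε : L), 0; 0, (ε : L)⁻¹] * !![1, -α / e; 0, 1] *
      !![1, 0; -(β * e), 1] : Matrix (Fin 2) (Fin 2) L) =
      !![1, p₁; 0, 1] * !![1, 0; p₂, 1] * !![1, p₃; 0, 1]) :
    X 9 β * X 14 α * sysD4.hU 14 (ε : L) * X 14 (-α / e) * X 9 (-(β * e)) =
      X 14 p₁ * X 9 p₂ * X 14 p₃ := by
  obtain ⟨g, -, hg⟩ := sysD4.exists_sl2_hom (F := L) (show 14 < chevD4.nroots by decide)
  let up : L → Matrix.SpecialLinearGroup (Fin 2) L := fun t =>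
    ⟨!![1, t; 0, 1], by simp [Matrix.det_fin_two]⟩
  let lo : L → Matrix.SpecialLinearGroup (Fin 2) L := fun t =>
    ⟨!![1, 0; t, 1], by simp [Matrix.det_fin_two]⟩
  let dd : Matrix.SpecialLinearGroup (Fin 2) L :=
    ⟨!![(ε : L), 0; 0, (ε : L)⁻¹], by simp [Matrix.det_fin_two]⟩
  have gup : ∀ t, g (up t) = X 14 t := fun t => Units.ext ((hg (up t) t).1 rfl)
  have glo : ∀ t, g (lo t) = X 9 t := fun t => by
    rw [show (9 : ℕ) = chevD4.neg 14 by decide +kernel]
    exact Units.ext ((hg (lo t) t).2 rfl)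
  have gd : g dd = sysD4.hU 14 (ε : L) := by
    have e : dd = (up ε * lo (-(ε : L)⁻¹) * up ε) * (up (-1) * lo 1 * up (-1)) := by
      refine Subtype.ext ?_
      show (!![(ε : L), 0; 0, (ε : L)⁻¹] : Matrix (Fin 2) (Fin 2) L) =
        !![1, (ε : L); 0, 1] * !![1, 0; -(ε : L)⁻¹, 1] * !![1, (ε : L); 0, 1] *
          (!![1, -1; 0, 1] * !![1, 0; 1, 1] * !![1, -1; 0, 1])
      simp [Matrix.mul_fin_two]
    rw [e, map_mul, map_mul, map_mul, map_mul, map_mul, gup, gup, glo, glo, sysD4.hU_eq,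
      sysD4.nU_eq, sysD4.nU_eq, show chevD4.neg 14 = 9 by decide +kernel,
      show -(-1 : L)⁻¹ = 1 by norm_num]
  have heq : lo β * up α * dd * up (-α / e) * lo (-(β * e)) = up p₁ * lo p₂ * up p₃ := by
    refine Subtype.ext ?_
    simp only [Matrix.SpecialLinearGroup.coe_mul, up, lo, dd]
    exact h
  have := congrArg g heq
  simpa only [map_mul, gup, glo, gd] using this

variable [IsAlgClosed L]

theorem exists_alpha {q : ℕ} (hq : 2 ≤ q) : ∃ α : Lˣ, (α : L) ^ q = -(α : L) := by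
  obtain ⟨x, hx⟩ := IsAlgClosed.exists_pow_nat_eq (-1 : L) (show 0 < q - 1 by omega)
  have hx0 : x ≠ 0 := by
    rintro rfl
    rw [zero_pow (by omega)] at hx
    exact one_ne_zero (neg_eq_zero.1 hx.symm)
  refine ⟨Units.mk0 x hx0, ?_⟩
  rw [Units.val_mk0, show q = q - 1 + 1 by omega, pow_succ, hx]
  ring

theorem exists_beta {q : ℕ} (hq : 2 ≤ q) (α : Lˣ) :
    ∃ β : Lˣ, (β : L) ^ q = (β : L) + (α : L)⁻¹ := by
  set p : Polynomial L := Polynomial.X ^ q - Polynomial.X - Polynomial.C (α : L)⁻¹ with hp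
  have hdeg : p.degree ≠ 0 := by
    intro h
    have h1 : p.coeff q = 1 := by
      simp [hp, Polynomial.coeff_X, Polynomial.coeff_C, show q ≠ 0 by omega, show ¬ 1 = q by omega]
    rw [Polynomial.eq_C_of_degree_eq_zero h, Polynomial.coeff_C,
      if_neg (show q ≠ 0 by omega)] at h1
    exact zero_ne_one h1
  obtain ⟨x, hx⟩ := IsAlgClosed.exists_root p hdeg
  have hx' : x ^ q - x - (α : L)⁻¹ = 0 := by simpa [hp] using hx
  have hx0 : x ≠ 0 := by
    rintro rfl
    rw [zero_pow (by omega), sub_zero, zero_sub, neg_eq_zero, inv_eq_zero] at hx'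
    exact α.ne_zero hx'
  exact ⟨Units.mk0 x hx0, by rw [Units.val_mk0]; linear_combination hx'⟩

/-- Equal powers of the generator. -/
theorem ypow_eq {y : L} {q : ℕ} (hy : y ^ M q = 1) (h0 : y ≠ 0) {a b : ℤ} (k : ℤ)
    (h : a - b = M q * k) : y ^ a = y ^ b := by
  rw [show a = b + M q * k by omega, zpow_add₀ h0, _root_.zpow_mul, hy, _root_.one_zpow, mul_one]

/-- The exponents of the torus. -/
theorem E_vals (q : ℕ) :
    R q 18 = 1 - (q : ℤ) - (q : ℤ) ^ 2 + 2 * (q : ℤ) ^ 3 ∧ R q 14 = 1 - (q : ℤ) ^ 3 ∧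
    R q 13 = 1 + 3 * (q : ℤ) - (q : ℤ) ^ 2 - 2 * (q : ℤ) ^ 3 ∧
    R q 12 = -3 - (q : ℤ) + 3 * (q : ℤ) ^ 2 + 2 * (q : ℤ) ^ 3 := by
  simp [R, RL, ev]
  exact ⟨by ring, by ring, by ring, by ring⟩

section

variable {K : Type u} [Field K] [Fintype K] {q : ℕ}
  (hq : IsPrimePow q) (hK : Fintype.card K = q ^ 3) (f : K →+* L) (ψ : L →+* L)
  (hψ : ∀ t, ψ t = t ^ q)

local notation "φ" => D4.phi hq hK
local notation "ι" => glMap chevD4 f

include hq hK f hψ

theorem exists_lift (α β : Lˣ) (hα : ψ (α : L) = -(α : L)) (hβ : ψ (β : L) = (β : L) + (α : L)⁻¹)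
    (y : Lˣ) (hy : (orderOf y : ℤ) = M q) :
    ∃ h ∈ twistedD4 K q, ι h = kk α β * sysD4.dg (zy y q) * (kk α β)⁻¹ ∧
      sysD4.dg (zy y q) ∈ chevD4.diagonalSubgroup L := by
  have h2 := hq.two_le
  set x : ℤ := (q : ℤ) with hx
  have hyM : (y : L) ^ M q = 1 := by
    rw [← Units.val_zpow_eq_zpow_val, ← hy, zpow_natCast, pow_orderOf_eq_one, Units.val_one]
  have hy0 : (y : L) ≠ 0 := y.ne_zero
  have hMd : M q = (x + 1) * (x ^ 3 - 1) := rfl
  set A : ℤ := x ^ 2 + x + 1 with hA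
  set ε : Lˣ := y ^ A with hε
  set b : Lˣ := y ^ (A * x) with hb
  set e : Lˣ := ε * b with he
  set w : Lˣ := y ^ (-(x * (x + 1))) with hw
  have hψy : ∀ k : ℤ, ψ ((y : L) ^ k) = (y : L) ^ (k * x) := fun k => by
    rw [hψ, ← zpow_natCast, ← _root_.zpow_mul]
  have va : (ε : L) = (y : L) ^ A := Units.val_zpow_eq_zpow_val _ _
  have vb : (b : L) = (y : L) ^ (A * x) := Units.val_zpow_eq_zpow_val _ _
  have vw : (w : L) = (y : L) ^ (-(x * (x + 1))) := Units.val_zpow_eq_zpow_val _ _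
  have pa : ψ (ε : L) = (b : L) := by rw [va, vb, hψy]
  have pb : ψ (b : L) = (ε : L) := by
    rw [va, vb, hψy]
    exact ypow_eq hyM hy0 1 (by rw [hMd, hA]; ring)
  have hab : (ε : L) ≠ (b : L) := by
    intro h
    have h' : y ^ A = y ^ (A * x) := Units.ext h
    rw [zpow_eq_iff y h2 hy, hMd] at h'
    have hx2 : (2 : ℤ) ≤ x := by rw [hx]; exact_mod_cast h2
    have := Int.le_of_dvd (by rw [hA]; nlinarith) (show (x + 1) * (x ^ 3 - 1) ∣ A * (x - 1) by
      rw [show A * (x - 1) = -(A - A * x) by ring]; exact dvd_neg.2 h')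
    rw [show A * (x - 1) = x ^ 3 - 1 by rw [hA]; ring] at this
    have : (8 : ℤ) ≤ x ^ 3 := le_trans (by norm_num) (pow_le_pow_left₀ (by norm_num) hx2 3)
    nlinarith
  have hwfix : (w : L) ^ q ^ 3 = (w : L) := by
    rw [vw, ← zpow_natCast, ← _root_.zpow_mul]
    refine ypow_eq hyM hy0 (-x) ?_
    push_cast
    rw [hMd, ← hx]; ring
  have hefix : (e : L) ^ q = (e : L) := by
    rw [← hψ, he, Units.val_mul, map_mul, pa, pb, mul_comm]
  obtain ⟨w₀, hw₀⟩ := mem_range_f hq hK f ψ hψ hwfix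
  obtain ⟨e₀, he₀, he₀'⟩ := exists_fix hq hK f ψ hψ hefix
  have hw₀0 : w₀ ≠ 0 := fun h => w.ne_zero (by rw [← hw₀, h, map_zero])
  have he₀0 : e₀ ≠ 0 := fun h => e.ne_zero (by rw [← he₀, h, map_zero])
  set W : Kˣ := Units.mk0 w₀ hw₀0
  set E : Kˣ := Units.mk0 e₀ he₀0
  set P : Kˣ →* Kˣ := Units.map (φ : K →* K) with hP
  let cK : Fin 4 → Kˣ := ![W * W, W * P W * P (P W), P (W * W), P (P (W * W))]
  let dK : Fin 4 → Kˣ := fun _ => E
  have h3 : ∀ t : Kˣ, P (P (P t)) = t := fun t => Units.ext (by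
    show φ (φ (φ (t : K))) = (t : K)
    rw [D4.phi_apply, D4.phi_apply, D4.phi_apply, ← pow_mul, ← pow_mul,
      show q * (q * q) = q ^ 3 by ring, ← hK, FiniteField.pow_card])
  have hmemc : sysD4.theta (cK : Fin chevD4.rank → Kˣ) ∈ twistedD4 K q ∧
      sysD4.theta (dK : Fin chevD4.rank → Kˣ) ∈ twistedD4 K q := by
    rw [D4.twisted_eq hq hK]
    have ok : ∀ c : Fin 4 → Kˣ, c 2 = P (c 0) → P (c 1) = c 1 → c 3 = P (c 2) → c 0 = P (c 3) →
        sysD4.theta (c : Fin chevD4.rank → Kˣ) ∈ (D4.orbits.{u}).tgroup φ := by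
      intro c k0 k1 k2 k3
      refine (D4.orbits.{u}).theta_mem φ fun i => ?_
      have hi : D4.graph.tauP i = (⟨[2, 1, 3, 0].getD (i : ℕ) 0, D4.graph.tau_lt i i.2⟩ : Fin 4) := rfl
      rw [hi]
      obtain ⟨i, hi'⟩ := i
      have : i < 4 := hi'
      interval_cases i
      · exact k0
      · exact k1.symm
      · exact k2
      · exact k3
    refine ⟨ok _ rfl ?_ rfl (h3 _).symm, ok _ ?_ ?_ ?_ ?_⟩
    · show P (W * P W * P (P W)) = W * P W * P (P W)
      rw [map_mul, map_mul, h3, mul_comm, ← mul_assoc]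
    all_goals exact Units.ext (by first | exact he₀' | exact he₀'.symm)
  -- the part in the rank one subgroup
  set a := (ε : L) with ha
  set bb := (b : L) with hbb
  have hae : (e : L) = a * bb := by rw [he, Units.val_mul]
  have ha0 : a ≠ 0 := ε.ne_zero
  have hb0 : bb ≠ 0 := b.ne_zero
  have hαβ : (1 + (α : L) * β) ≠ 0 := by
    intro h
    have h' : ψ (1 + (α : L) * β) = 0 := by rw [h, map_zero]
    rw [map_add, map_one, map_mul, hα, hβ] at h'
    field_simp [α.ne_zero] at h'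
    exact one_ne_zero (by linear_combination h + h' : (1 : L) = 0)
  set P11 := a * (1 + (α : L) * β) - bb * ((α : L) * β) with h11
  set P21 := (β : L) * (1 + (α : L) * β) * (a - bb) with h21
  set P22 := bb * (1 + (α : L) * β) - a * ((α : L) * β) with h22
  have hαi : (α : L) * (α : L)⁻¹ = 1 := mul_inv_cancel₀ α.ne_zero
  have f11 : ψ P11 = P11 := by
    simp only [h11, map_sub, map_mul, map_add, map_one, hα, hβ, pa, pb]
    linear_combination (a - bb) * hαi
  have f22 : ψ P22 = P22 := by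
    simp only [h22, map_sub, map_mul, map_add, map_one, hα, hβ, pa, pb]
    linear_combination (bb - a) * hαi
  have f21 : ψ P21 = P21 := by
    simp only [h21, map_sub, map_mul, map_add, map_one, hα, hβ, pa, pb]
    linear_combination (-(2 * (β : L) + (α : L)⁻¹) * (bb - a)) * hαi
  have fe : ψ (e : L) = (e : L) := by rw [hψ, hefix]
  have hP21 : P21 ≠ 0 := mul_ne_zero (mul_ne_zero β.ne_zero hαβ) (sub_ne_zero.2 hab)
  obtain ⟨k₁, hk₁, hk₁'⟩ := exists_fix hq hK f ψ hψ (x := (P11 - 1) / P21) (by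
    rw [← hψ, map_div₀, map_sub, map_one, f11, f21])
  obtain ⟨k₂, hk₂, hk₂'⟩ := exists_fix hq hK f ψ hψ (x := P21) (by rw [← hψ, f21])
  obtain ⟨k₃, hk₃, hk₃'⟩ := exists_fix hq hK f ψ hψ (x := (P22 / (e : L) - 1) / P21) (by
    rw [← hψ, map_div₀, map_sub, map_div₀, map_one, f22, fe, f21])
  have hmat := sl2_word (α : L) (β : L) (e : L) ε (p₁ := (P11 - 1) / P21) (p₂ := P21)
    (p₃ := (P22 / (e : L) - 1) / P21) (by
      rw [hae]
      ext i j
      fin_cases i <;> fin_cases j <;> simp [Matrix.mul_fin_two, ← ha] <;> field_simp <;>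
        simp only [h11, h21, h22] <;> ring)
  have hgen : ∀ r ∈ [d4p2, d4m2], ∀ t : K, φ t = t → sysD4.xU r t ∈ twistedD4 K q := by
    intro r hr t ht
    refine Subgroup.subset_closure ⟨[(r, t)], Or.inl ⟨t, by rw [← D4.phi_apply hq hK, ht], r, hr, rfl⟩, ?_⟩
    rw [show sysD4.xU r t = sysD4.wU [(r, t)] by simp [Sys.wU]]
    exact sysD4.coe_wU _
  refine ⟨sysD4.theta (cK : Fin chevD4.rank → Kˣ) *
    (sysD4.xU 14 k₁ * sysD4.xU 9 k₂ * sysD4.xU 14 k₃ * sysD4.theta (dK : Fin chevD4.rank → Kˣ)),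
    mul_mem hmemc.1 (mul_mem (mul_mem (mul_mem (hgen 14 (by simp [d4p2]) k₁ hk₁')
      (hgen 9 (by simp [d4m2]) k₂ hk₂')) (hgen 14 (by simp [d4p2]) k₃ hk₃')) hmemc.2), ?_⟩
  let F : Kˣ →* Lˣ := Units.map (f : K →* L)
  have hth : ∀ c : Fin 4 → Kˣ, ι (sysD4.theta (c : Fin chevD4.rank → Kˣ)) =
      sysD4.dg (torHom chevD4 (fun i : Fin chevD4.rank => F (c i))) := by
    intro c
    show ι (sysD4.dg (torHom chevD4 (c : Fin chevD4.rank → Kˣ))) = _
    rw [sysD4.glMap_dg]
    refine sysD4.dg_congr fun i _ => ?_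
    show F (∏ j : Fin chevD4.rank, c j ^ chevD4.cartan (j : ℕ) (chevD4.simple i)) = _
    rw [map_prod]
    exact Finset.prod_congr rfl fun j _ => map_zpow _ _ _
  have hPW : ∀ t : Kˣ, ((F (P t) : Lˣ) : L) = ψ (F t : L) := fun t => (psi_f hq hK f ψ hψ (t : K)).symm
  have hFW : ((F W : Lˣ) : L) = (y : L) ^ (-(x * (x + 1))) := hw₀.trans vw
  have hFE : ((F E : Lˣ) : L) = (y : L) ^ (A + A * x) := by
    rw [show ((F E : Lˣ) : L) = (e : L) from he₀, hae, va, vb, ← zpow_add₀ hy0]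
  set zc := torHom chevD4 (fun i : Fin chevD4.rank => F (cK i)) with hzc
  set zd := torHom chevD4 (fun i : Fin chevD4.rank => F (dK i)) with hzd
  set zh := hz chevD4 14 ε with hzh
  have t14 : chevD4.cartan 0 14 = -1 ∧ chevD4.cartan 1 14 = 2 ∧ chevD4.cartan 2 14 = -1 ∧
      chevD4.cartan 3 14 = -1 := by decide +kernel
  have c14 : sysD4.chi zc 14 = 1 := by
    rw [hzc, sysD4.chi_torHom_prod _ (show 14 < chevD4.nroots by decide)]
    rw [show (∏ l : Fin chevD4.rank, F (cK l) ^ chevD4.cartan (l : ℕ) 14) =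
      F (cK 0) ^ chevD4.cartan 0 14 * F (cK 1) ^ chevD4.cartan 1 14 * F (cK 2) ^ chevD4.cartan 2 14 *
        F (cK 3) ^ chevD4.cartan 3 14 from Fin.prod_univ_four _, t14.1, t14.2.1, t14.2.2.1, t14.2.2.2]
    refine Units.ext ?_
    simp [cK, hPW, map_mul]
    have := (F W).ne_zero
    have := (map_ne_zero ψ).2 this
    have := (map_ne_zero ψ).2 this
    field_simp
  have d14 : sysD4.chi zd 14 = (e⁻¹ : Lˣ) := by
    rw [hzd, sysD4.chi_torHom_prod _ (show 14 < chevD4.nroots by decide)]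
    rw [show (∏ l : Fin chevD4.rank, F (dK l) ^ chevD4.cartan (l : ℕ) 14) =
      F (dK 0) ^ chevD4.cartan 0 14 * F (dK 1) ^ chevD4.cartan 1 14 * F (dK 2) ^ chevD4.cartan 2 14 *
        F (dK 3) ^ chevD4.cartan 3 14 from Fin.prod_univ_four _, t14.1, t14.2.1, t14.2.2.1, t14.2.2.2]
    simp only [dK]
    rw [← _root_.zpow_add, ← _root_.zpow_add, ← _root_.zpow_add]
    norm_num
    exact Units.ext he₀
  have d9 : sysD4.chi zd 9 = e := by
    rw [show 9 = chevD4.neg 14 by decide +kernel, sysD4.chi_neg _ (show 14 < chevD4.nroots by decide),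
      d14, inv_inv]
  have c9 : sysD4.chi zc 9 = 1 := by
    rw [show 9 = chevD4.neg 14 by decide +kernel, sysD4.chi_neg _ (show 14 < chevD4.nroots by decide),
      c14, inv_one]
  have hck : sysD4.dg zc * kk α β = kk α β * sysD4.dg zc := by
    rw [kk, ← mul_assoc, sysD4.dg_xU _ (show 9 < chevD4.nroots by decide), c9, Units.val_one, one_mul,
      mul_assoc, sysD4.dg_xU _ (show 14 < chevD4.nroots by decide), c14, Units.val_one, one_mul,
      ← mul_assoc]
  have hdk : sysD4.dg zd * (kk α β)⁻¹ =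
      X 14 (-(α : L) / (e : L)) * X 9 (-((β : L) * e)) * sysD4.dg zd := by
    rw [kk, _root_.mul_inv_rev, sysD4.xU_inv, sysD4.xU_inv, ← mul_assoc,
      sysD4.dg_xU _ (show 14 < chevD4.nroots by decide), mul_assoc,
      sysD4.dg_xU _ (show 9 < chevD4.nroots by decide), ← mul_assoc, d14, d9]
    congr 3
    · rw [Units.val_inv_eq_inv_val]; ring
    · ring
  have hdec : sysD4.dg (zy y q) = sysD4.dg zc * sysD4.dg zh * sysD4.dg zd := by
    rw [← sysD4.dg_mul, ← sysD4.dg_mul]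
    refine sysD4.dg_congr fun i hi => ?_
    have hcart : ∀ j < 4, ∀ k < 4, chevD4.cartan j (chevD4.simple k) =
        ((D4.cart.getD j []).getD k 0) := by decide +kernel
    have hs : chevD4.simple 1 = 14 := by decide +kernel
    refine Units.ext ?_
    simp only [Pi.mul_apply, Units.val_mul]
    have hzh' : zh i = ε ^ chevD4.cartan 1 (chevD4.simple i) := by
      rw [hzh, ← hs]
      show hz chevD4 (chevD4.simple 1) ε i = _
      rw [hz, sysD4.{u}.cr_simple (by decide)]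
    rw [hzh', hzc, hzd]
    show _ = ((∏ j : Fin 4, F (cK j) ^ chevD4.cartan (j : ℕ) (chevD4.simple i) : Lˣ) : L) * _ *
      ((∏ j : Fin 4, F (dK j) ^ chevD4.cartan (j : ℕ) (chevD4.simple i) : Lˣ) : L)
    rw [Fin.prod_univ_four, Fin.prod_univ_four]
    have hi4 : i < 4 := hi
    simp only [show ((0 : Fin 4) : ℕ) = 0 from rfl, show ((1 : Fin 4) : ℕ) = 1 from rfl,
      show ((2 : Fin 4) : ℕ) = 2 from rfl, show ((3 : Fin 4) : ℕ) = 3 from rfl,
      hcart 0 (by omega) i hi4, hcart 1 (by omega) i hi4, hcart 2 (by omega) i hi4,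
      hcart 3 (by omega) i hi4, zy]
    obtain ⟨r18, r14, r13, r12⟩ := E_vals q
    interval_cases i <;>
      simp only [D4.cart, List.getD_cons_zero, List.getD_cons_succ, r18, r14, r13, r12, cK, dK,
        Matrix.cons_val_zero, Matrix.cons_val_one, Matrix.cons_val_two, Matrix.cons_val_three,
        Matrix.head_cons, Matrix.tail_cons, Units.val_mul, Units.val_zpow_eq_zpow_val, map_mul, hPW,
        hFW, hFE, ← ha, va, hψy, ← _root_.zpow_add₀ hy0, ← _root_.zpow_mul] <;>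
      first
        | (refine ypow_eq hyM hy0 (-1) ?_; simp only [hMd, hA, hx]; ring1)
        | (refine ypow_eq hyM hy0 0 ?_; simp only [hMd, hA, hx]; ring1)
        | (refine ypow_eq hyM hy0 3 ?_; simp only [hMd, hA, hx]; ring1)
  refine ⟨?_, ?_⟩
  swap
  · rw [hdec]
    refine mul_mem (mul_mem (sysD4.theta_mem_diag _) ?_) (sysD4.theta_mem_diag _)
    rw [hzh, show (14 : ℕ) = chevD4.simple ((⟨1, by decide⟩ : Fin chevD4.rank) : ℕ) by decide +kernel,
      ← sysD4.theta_single]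
    exact sysD4.theta_mem_diag _
  rw [hdec, map_mul, map_mul, map_mul, map_mul, hth, hth, sysD4.glMap_xU, sysD4.glMap_xU,
    sysD4.glMap_xU, hk₁, hk₂, hk₃]
  rw [show kk α β * (sysD4.dg zc * sysD4.dg zh * sysD4.dg zd) * (kk α β)⁻¹ =
    (kk α β * sysD4.dg zc) * sysD4.dg zh * (sysD4.dg zd * (kk α β)⁻¹) by group, hdk, ← hck]
  have hh : sysD4.dg zh = sysD4.hU 14 (ε : L) :=
    (sysD4.hU_eq_dg (show 14 < chevD4.nroots by decide) ε).symm
  rw [hh, show sysD4.dg zc * kk α β * sysD4.hU 14 (ε : L) *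
    (X 14 (-(α : L) / (e : L)) * X 9 (-((β : L) * e)) * sysD4.dg zd) = sysD4.dg zc *
      (X 9 (β : L) * X 14 (α : L) * sysD4.hU 14 (ε : L) * X 14 (-(α : L) / (e : L)) *
        X 9 (-((β : L) * e)) * sysD4.dg zd) by simp only [kk]; group, hmat]

/-- The torus of order `(q + 1)(q³ - 1)`. -/
theorem main_of_closure :
    ∃ H : Subgroup ↥(twistedD4 K q), IsCyclic ↥H ∧ Nat.card ↥H = (q ^ 3 - 1) * (q + 1) ∧
      Subgroup.centralizer (H : Set ↥(twistedD4 K q)) = H := by
  classical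
  have h2 := hq.two_le
  have h8 : 8 ≤ q ^ 3 := le_trans (by norm_num) (Nat.pow_le_pow_left h2 3)
  set m := (q + 1) * (q ^ 3 - 1) with hm
  have hmM : (m : ℤ) = M q := by
    rw [hm, M, Nat.cast_mul, Nat.cast_sub (by omega)]; push_cast; ring
  have : NeZero (m : L) := ⟨fun h => by
    have hq0 : ((q : ℕ) : L) = 0 := by
      have : ((Fintype.card K : ℕ) : L) = 0 := by
        rw [← map_natCast f, Nat.cast_card_eq_zero, map_zero]
      rw [hK, Nat.cast_pow] at this
      exact eq_zero_of_pow_eq_zero this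
    rw [hm, Nat.cast_mul, Nat.cast_sub (by omega), Nat.cast_add, Nat.cast_pow, hq0] at h
    simp at h⟩
  obtain ⟨y₀, hy₀⟩ := HasEnoughRootsOfUnity.exists_primitiveRoot L m
  have hy0 : y₀ ≠ 0 := hy₀.ne_zero (by rw [hm]; exact (Nat.mul_pos (by omega) (by omega)).ne')
  set y : Lˣ := Units.mk0 y₀ hy0
  have hyo : orderOf y = m := by rw [← orderOf_units]; exact hy₀.eq_orderOf.symm
  have hy : (orderOf y : ℤ) = M q := by rw [hyo, hmM]
  obtain ⟨α, hα'⟩ := exists_alpha (L := L) h2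
  obtain ⟨β, hβ'⟩ := exists_beta h2 α
  have hα : ψ (α : L) = -(α : L) := by rw [hψ, hα']
  have hβ : ψ (β : L) = (β : L) + (α : L)⁻¹ := by rw [hψ, hβ']
  obtain ⟨h, hG, hh, hdz⟩ := exists_lift hq hK f ψ hψ α β hα hβ y hy
  set x : twistedD4 K q := ⟨h, hG⟩ with hxdef
  set k := kk α β with hk
  set t := sysD4.dg (zy y q) with ht
  have hpow : ∀ j : ℕ, t ^ j = 1 → m ∣ j := by
    intro j hj
    have e : sysD4.dg ((zy y q) ^ j) = sysD4.dg (1 : ℕ → Lˣ) := by
      rw [show sysD4.dg ((zy y q) ^ j) = t ^ j from map_pow sysD4.dgHom (zy y q) j, hj]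
      exact (map_one sysD4.dgHom).symm
    obtain ⟨r18, r14, -, -⟩ := E_vals q
    have d0 : M q ∣ R q 18 * j := by
      have := sysD4.dg_inj e (show 0 < chevD4.rank by decide)
      simp only [zy, Pi.pow_apply, Pi.one_apply, List.getD_cons_zero, ← zpow_natCast,
        ← _root_.zpow_mul] at this
      rw [← hy]; exact orderOf_dvd_iff_zpow_eq_one.2 this
    have d1 : M q ∣ R q 14 * j := by
      have := sysD4.dg_inj e (show 1 < chevD4.rank by decide)
      simp only [zy, Pi.pow_apply, Pi.one_apply, List.getD_cons_zero, List.getD_cons_succ,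
        ← zpow_natCast, ← _root_.zpow_mul] at this
      rw [← hy]; exact orderOf_dvd_iff_zpow_eq_one.2 this
    obtain ⟨a, b, hab⟩ := coprime_E (q : ℤ)
    rw [← r18, ← r14] at hab
    have hd : M q ∣ (j : ℤ) := by
      have := dvd_add (d0.mul_left a) (d1.mul_left b)
      rwa [show a * (R q 18 * j) + b * (R q 14 * j) = (a * R q 18 + b * R q 14) * j by ring, hab,
        one_mul] at this
    rw [← hmM] at hd
    exact_mod_cast hd
  have htm : t ^ m = 1 := by
    rw [show t ^ m = sysD4.dg ((zy y q) ^ m) from (map_pow sysD4.dgHom (zy y q) m).symm,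
      show (zy y q) ^ m = 1 from ?_]
    · exact map_one sysD4.dgHom
    funext i
    simp only [zy, Pi.pow_apply, Pi.one_apply, ← zpow_natCast, ← _root_.zpow_mul]
    rw [mul_comm, _root_.zpow_mul, zpow_natCast, ← hyo, pow_orderOf_eq_one, _root_.one_zpow]
  have hordx : orderOf x = m := by
    have e1 : orderOf x = orderOf t := by
      rw [← Subgroup.orderOf_coe, ← orderOf_injective (ι) (glMap_injective chevD4 f)]
      show orderOf (ι h) = _
      rw [hh, ← MulAut.conj_apply]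
      exact MulEquiv.orderOf_eq (MulAut.conj k) t
    rw [e1]
    exact Nat.dvd_antisymm (orderOf_dvd_of_pow_eq_one htm) (hpow _ (pow_orderOf_eq_one t))
  refine ⟨Subgroup.zpowers x, inferInstance, by rw [Nat.card_zpowers, hordx, hm, mul_comm], ?_⟩
  set C := Subgroup.centralizer (Subgroup.zpowers x : Set ↥(twistedD4 K q))
  have hle : Subgroup.zpowers x ≤ C := by
    intro a ha
    rw [Subgroup.mem_centralizer_iff]
    intro b hb
    obtain ⟨i, rfl⟩ := ha
    obtain ⟨j, rfl⟩ := hb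
    exact (Commute.zpow_zpow (Commute.refl x) j i).eq
  have hmem : ∀ g : C, ∃ z : ℕ → Lˣ, ι ((g : ↥(twistedD4 K q)) : GL chevD4.Idx K) = k * sysD4.dg z * k⁻¹ := by
    intro g
    set G₀ := ι ((g : ↥(twistedD4 K q)) : GL chevD4.Idx K)
    have hc : ((g : ↥(twistedD4 K q)) : GL chevD4.Idx K) * h = h * (g : ↥(twistedD4 K q)) :=
      congrArg Subtype.val ((Subgroup.mem_centralizer_iff.1 g.2 x (Subgroup.mem_zpowers x)).symm)
    have hc' : G₀ * (k * t * k⁻¹) = (k * t * k⁻¹) * G₀ := by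
      rw [← hh, ← map_mul, ← map_mul, hc]
    have hcc : (k⁻¹ * G₀ * k) * t = t * (k⁻¹ * G₀ * k) := by
      have := congrArg (fun a => k⁻¹ * a * k) hc'
      simpa [mul_assoc] using this
    have hkg : k ∈ chevD4.group L := kk_mem
    obtain ⟨z, hz'⟩ := sysD4.exists_dg (mem_diag_of_commute (z := zy y q)
      (fun r hr _ => chi_zy_ne y h2 hy hr) (fun n hn w hwW hwa hst => stab_zy y h2 hy hn hwW hwa hst)
      (mul_mem (mul_mem (inv_mem hkg) (sigma_of_mem hq hK f ψ hψ (g : ↥(twistedD4 K q)).2).2) hkg)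
      hcc hdz)
    exact ⟨z, by rw [← hz']; group; rfl⟩
  choose z hz using hmem
  haveI : Finite (GL chevD4.Idx K) := Sys.finite_GL
  have hcard : Nat.card C ≤ m := card_fixed_torus (L := L) hq ψ hψ hα hβ z
    (fun a b e => by
      have : ι ((a : ↥(twistedD4 K q)) : GL chevD4.Idx K) = ι ((b : ↥(twistedD4 K q)) : GL chevD4.Idx K) := by
        rw [hz a, hz b, e]
      exact Subtype.ext (Subtype.ext (glMap_injective chevD4 f this)))
    (fun a => by rw [← hz a]; exact (sigma_of_mem hq hK f ψ hψ (a : ↥(twistedD4 K q)).2).1)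
  exact (Subgroup.eq_of_le_of_card_ge hle (by rw [Nat.card_zpowers, hordx]; exact hcard)).symm

end

end CfsgLib.Chev.D4Torus
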