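import Cfsg.Agent.Chev.D4Torus.Main

/-!
# The embedding of the torus into `³D₄(q)` and the upper bound for its centraliser
-/

set_option autoImplicit false
set_option linter.unusedSectionVars false
set_option maxRecDepth 100000

namespace CfsgLib.Chev.D4Torus

open Cfsg.Lie CfsgLib.Chev Matrix CfsgLib.Chev.Twisted

universe u

variable {K L : Type u} [Field K] [Fintype K] [Field L] [IsAlgClosed L] {q : ℕ}
  (hq : IsPrimePow q) (hK : Fintype.card K = q ^ 3) (f : K →+* L) (ψ : L →+* L)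
  (hψ : ∀ t, ψ t = t ^ q)

local notation "φ" => D4.phi hq hK
local notation "ι" => glMap chevD4 f
local notation "σ" => D4.graph.sigma ψ

include hq hK hψ

theorem psi_f (x : K) : ψ (f x) = f (φ x) := by
  rw [hψ, D4.phi_apply, map_pow]

/-- The elements of the twisted group are fixed over the algebraic closure. -/
theorem sigma_of_mem {g : GL chevD4.Idx K} (hg : g ∈ twistedD4 K q) :
    σ (ι g) = ι g ∧ ι g ∈ chevD4.group L := by
  have hle : twistedD4 K q ≤
      (((σ).eqLocus (MonoidHom.id _)) ⊓ chevD4.group L).comap (ι) := by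
    rw [D4.twisted_eq hq hK, Orbits.tgroup, Subgroup.closure_le]
    rintro g ⟨j, s, c, hc, rfl⟩
    have e : ι ((D4.orbits.{u}).xh j s c) = (D4.orbits.{u}).xh j s (fun i => f (c i)) := by
      rw [Orbits.xh_prod, map_list_prod, List.map_map, Orbits.xh_prod]
      congr 1
      exact List.map_congr_left fun i _ => sysD4.glMap_xU f _ _
    refine Subgroup.mem_comap.2 (Subgroup.mem_inf.2 ⟨?_, ?_⟩)
    · show σ (ι _) = ι _
      rw [e]
      exact (D4.orbits.{u}).sigma_xh_fixed ψ j s fun i => by rw [hc i, psi_f hq hK f ψ hψ]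
    · rw [e, Orbits.xh_prod]
      refine Subgroup.list_prod_mem _ fun x hx => ?_
      obtain ⟨i, -, rfl⟩ := List.mem_map.1 hx
      exact sysD4.xU_mem_group _ _
  exact Subgroup.mem_inf.1 (Subgroup.mem_comap.1 (hle hg))

/-- Elements fixed by `t ↦ t^(q³)` come from `K`. -/
theorem mem_range_f {x : L} (hx : x ^ q ^ 3 = x) : ∃ t : K, f t = x := by
  classical
  have h2 : 1 < q ^ 3 := Nat.one_lt_pow (by norm_num) hq.one_lt
  set p : Polynomial L := Polynomial.X ^ q ^ 3 - Polynomial.X with hp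
  have hne : p ≠ 0 := FiniteField.X_pow_card_sub_X_ne_zero L h2
  have hsub : (Finset.univ.image f) ⊆ p.roots.toFinset := by
    intro y hy
    obtain ⟨t, -, rfl⟩ := Finset.mem_image.1 hy
    rw [Multiset.mem_toFinset, Polynomial.mem_roots hne]
    simp [hp, ← hK, ← map_pow, FiniteField.pow_card]
  have hcard : p.roots.toFinset.card ≤ (Finset.univ.image f).card := by
    rw [Finset.card_image_of_injective _ f.injective, Finset.card_univ, hK]
    exact (Multiset.toFinset_card_le _).trans ((Polynomial.card_roots' p).trans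
      (le_of_eq (FiniteField.X_pow_card_sub_X_natDegree_eq L h2)))
  have hmem : x ∈ p.roots.toFinset := by
    rw [Multiset.mem_toFinset, Polynomial.mem_roots hne]
    simp [hp, hx]
  rw [← Finset.eq_of_subset_of_card_le hsub hcard] at hmem
  obtain ⟨t, -, rfl⟩ := Finset.mem_image.1 hmem
  exact ⟨t, rfl⟩

theorem exists_fix {x : L} (hx : x ^ q = x) : ∃ t : K, f t = x ∧ φ t = t := by
  obtain ⟨t, rfl⟩ := mem_range_f hq hK f ψ hψ (x := x)
    (by rw [show q ^ 3 = q * q * q by ring, pow_mul, pow_mul, hx, hx, hx])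
  exact ⟨t, rfl, f.injective (by rw [← psi_f hq hK f ψ hψ, hψ, hx])⟩

section Twist

variable {α β : Lˣ} (hα : ψ (α : L) = -(α : L)) (hβ : ψ (β : L) = (β : L) + (α : L)⁻¹)

/-- The element conjugating the torus into the twisted group. -/
noncomputable def kk (α β : Lˣ) : GL chevD4.Idx L := X 9 (β : L) * X 14 (α : L)

omit hq hK hψ in
theorem kk_mem : kk α β ∈ chevD4.group L :=
  mul_mem (sysD4.xU_mem_group _ _) (sysD4.xU_mem_group _ _)

include hα hβ

omit hq hK hψ in
theorem sigma_kk : σ (kk α β) = kk α β * sysD4.nU 14 (-(α : L)) := by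
  have hx : ∀ r < 24, D4.rhoL.getD r 0 = r → D4.epsL.getD r 0 = 1 → ∀ t : L,
      σ (X r t) = X r (ψ t) := by
    intro r hr h1 h2 t
    show σ (sysD4.xU r t) = _
    rw [D4.graph.sigma_xU sysD4 ψ (show r < chevD4.nroots from hr),
      show D4.graph.rho r = r from h1, show D4.graph.eps r = 1 from h2, Int.cast_one, one_mul]
  rw [kk, map_mul, hx 9 (by omega) (by decide +kernel) (by decide +kernel),
    hx 14 (by omega) (by decide +kernel) (by decide +kernel), hα, hβ, sysD4.nU_eq,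
    show chevD4.neg 14 = 9 by decide +kernel, show -(-(α : L))⁻¹ = (α : L)⁻¹ by rw [inv_neg, _root_.neg_neg]]
  rw [show sysD4.xU 9 (β : L) * sysD4.xU 14 (α : L) *
    (sysD4.xU 14 (-(α : L)) * sysD4.xU 9 (α : L)⁻¹ * sysD4.xU 14 (-(α : L))) =
    sysD4.xU 9 (β : L) * (sysD4.xU 14 (α : L) * sysD4.xU 14 (-(α : L))) * sysD4.xU 9 (α : L)⁻¹ *
      sysD4.xU 14 (-(α : L)) by group, sysD4.xU_add 14, add_neg_cancel, sysD4.xU_zero, mul_one, sysD4.xU_add]

omit hq hK hψ in
/-- The equations of a torus element whose conjugate is fixed. -/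
theorem torus_eq {z : ℕ → Lˣ}
    (hfix : σ (kk α β * sysD4.dg z * (kk α β)⁻¹) = kk α β * sysD4.dg z * (kk α β)⁻¹) :
    ∀ r < 24, sysD4.chi z (sysD4.{u}.pi 1 (D4.rhoL.getD r 0)) =
      Units.map (ψ : L →* L) (sysD4.chi z r) := by
  intro r hr
  set N := sysD4.nU 14 (-(α : L)) with hN
  have hT : N * σ (sysD4.dg z) * N⁻¹ = sysD4.dg z := by
    rw [map_mul, map_mul, map_inv, sigma_kk ψ hα hβ] at hfix
    have := congrArg (fun g => (kk α β)⁻¹ * g * kk α β) hfix
    simpa [mul_assoc] using this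
  have h14 : chevD4.simple 1 = 14 := by decide +kernel
  have hNa : sysD4.Acts N (sysD4.{u}.refl 1) := by
    rw [hN, show -(α : L) = ((-α : Lˣ) : L) from rfl, ← h14, sysD4.nU_simple (by decide)]
    have hd : sysD4.dg (hz chevD4 (chevD4.simple 1) (-α)) ∈ chevD4.diagonalSubgroup L := by
      show sysD4.dg (hz chevD4 (chevD4.simple ((⟨1, by decide⟩ : Fin chevD4.rank) : ℕ)) (-α)) ∈ _
      rw [← sysD4.theta_single]
      exact sysD4.theta_mem_diag _
    simpa using sysD4.acts_mul (sysD4.acts_diag hd) (sysD4.acts_nU (F := L) (q := 1) (by decide))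
  have hρ : D4.graph.rho r < chevD4.nroots := D4.graph.rho_lt r hr
  obtain ⟨c, hc⟩ := hNa ⟨_, hρ⟩
  rw [sysD4.{u}.refl_apply (by decide)] at hc
  obtain ⟨e, he⟩ : ∃ e : Lˣ, (e : L) = (D4.graph.eps r : L) := by
    rcases D4.graph.eps_unit r hr with h | h <;> rw [h]
    · exact ⟨1, by simp⟩
    · exact ⟨-1, by simp⟩
  have hN' : ∀ t : L, N * σ (X r t) * N⁻¹ =
      X (sysD4.{u}.pi 1 (D4.graph.rho r)) ((c : L) * ((e : L) * ψ t)) := by
    intro t
    show N * σ (sysD4.xU r t) * N⁻¹ = _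
    rw [D4.graph.sigma_xU sysD4 ψ (show r < chevD4.nroots from hr), he]
    exact hc _
  have e1 := congrArg (fun g => N * σ g * N⁻¹)
    (sysD4.dg_conj_xU z (show r < chevD4.nroots from hr) (1 : L))
  simp only [map_mul, map_inv] at e1
  rw [show N * (σ (sysD4.dg z) * σ (sysD4.xU r 1) * (σ (sysD4.dg z))⁻¹) * N⁻¹ =
    (N * σ (sysD4.dg z) * N⁻¹) * (N * σ (X r 1) * N⁻¹) * (N * σ (sysD4.dg z) * N⁻¹)⁻¹ by group,
    hT, hN' 1, hN', sysD4.dg_conj_xU z (sysD4.{u}.pi_lt 1 (by decide) _ hρ), map_one] at e1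
  have e2 := sysD4.coef_eq (sysD4.{u}.pi_lt 1 (by decide) _ hρ) e1
  refine Units.ext ?_
  show ((sysD4.chi z (sysD4.{u}.pi 1 (D4.graph.rho r)) : Lˣ) : L) = ψ (sysD4.chi z r : L)
  have hne : (c : L) * (e : L) ≠ 0 := mul_ne_zero c.ne_zero e.ne_zero
  refine mul_left_cancel₀ hne ?_
  simp only [mul_one] at e2
  exact ((mul_comm _ _).trans e2).trans (mul_assoc _ _ _).symm

include hq in
omit hK in
/-- At most `(q + 1)(q³ - 1)` fixed torus elements. -/
theorem card_fixed_torus {A : Type*} [Finite A] (z : A → ℕ → Lˣ)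
    (hinj : ∀ a b, sysD4.dg (z a) = sysD4.dg (z b) → a = b)
    (hfix : ∀ a, σ (kk α β * sysD4.dg (z a) * (kk α β)⁻¹) = kk α β * sysD4.dg (z a) * (kk α β)⁻¹) :
    Nat.card A ≤ (q + 1) * (q ^ 3 - 1) := by
  classical
  have tb : sysD4.{u}.pi 1 (D4.rhoL.getD 14 0) = 9 ∧ sysD4.{u}.pi 1 (D4.rhoL.getD 18 0) = 16 ∧
      sysD4.{u}.pi 1 (D4.rhoL.getD 13 0) = 15 ∧ sysD4.{u}.pi 1 (D4.rhoL.getD 12 0) = 19 := by
    decide +kernel
  have hv : ∀ (r : ℕ) (w : ℕ → Lˣ), r < 24 → sysD4.chi w r =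
      w 0 ^ sysD4.{u}.vec r 0 * w 1 ^ sysD4.{u}.vec r 1 * w 2 ^ sysD4.{u}.vec r 2 *
        w 3 ^ sysD4.{u}.vec r 3 := fun r w _ => chi_eq w r
  have vv : [14, 18, 13, 12, 9, 16, 15, 19].map (fun r => [sysD4.{u}.vec r 0, sysD4.{u}.vec r 1,
      sysD4.{u}.vec r 2, sysD4.{u}.vec r 3]) = [[0, 1, 0, 0], [1, 0, 0, 0], [0, 0, 1, 0],
      [0, 0, 0, 1], [0, -1, 0, 0], [0, 1, 1, 0], [0, 1, 0, 1], [1, 1, 0, 0]] := by decide +kernel
  simp only [List.map_cons, List.map_nil, List.cons.injEq, and_true] at vv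
  obtain ⟨⟨a0, a1, a2, a3⟩, ⟨b0, b1, b2, b3⟩, ⟨c0, c1, c2, c3⟩, ⟨d0, d1, d2, d3⟩, ⟨g0, g1, g2, g3⟩,
    ⟨h0, h1, h2, h3⟩, ⟨i0, i1, i2, i3⟩, ⟨j0, j1, j2, j3⟩⟩ := vv
  have eqs : ∀ a, (z a 1)⁻¹ = Units.map (ψ : L →* L) (z a 1) ∧
      z a 1 * z a 2 = Units.map (ψ : L →* L) (z a 0) ∧
      z a 1 * z a 3 = Units.map (ψ : L →* L) (z a 2) ∧
      z a 0 * z a 1 = Units.map (ψ : L →* L) (z a 3) := by
    intro a
    have T := torus_eq ψ hα hβ (hfix a)
    have t14 := T 14 (by omega)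
    have t18 := T 18 (by omega)
    have t13 := T 13 (by omega)
    have t12 := T 12 (by omega)
    rw [tb.1, hv 9 _ (by omega), hv 14 _ (by omega), a0, a1, a2, a3, g0, g1, g2, g3] at t14
    rw [tb.2.1, hv 16 _ (by omega), hv 18 _ (by omega), b0, b1, b2, b3, h0, h1, h2, h3] at t18
    rw [tb.2.2.1, hv 15 _ (by omega), hv 13 _ (by omega), c0, c1, c2, c3, i0, i1, i2, i3] at t13
    rw [tb.2.2.2, hv 19 _ (by omega), hv 12 _ (by omega), d0, d1, d2, d3, j0, j1, j2, j3] at t12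
    refine ⟨?_, ?_, ?_, ?_⟩
    · simpa using t14
    · simpa using t18
    · simpa using t13
    · simpa using t12
  let p1 : Polynomial L := Polynomial.X ^ (q + 1) - Polynomial.C 1
  let p0 : L → Polynomial L := fun v => Polynomial.X ^ (q ^ 3 - 1) - Polynomial.C (v ^ (q ^ 2 + q + 1))
  let S : Finset (Σ _ : L, L) := p1.roots.toFinset.sigma fun v => (p0 v).roots.toFinset
  have hS : S.card ≤ (q + 1) * (q ^ 3 - 1) := by
    rw [Finset.card_sigma]
    refine (Finset.sum_le_card_nsmul _ _ (q ^ 3 - 1) fun v _ => ?_).trans ?_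
    · exact (Multiset.toFinset_card_le _).trans ((Polynomial.card_roots' _).trans
        (le_of_eq (Polynomial.natDegree_X_pow_sub_C)))
    · rw [smul_eq_mul]
      exact Nat.mul_le_mul_right _ ((Multiset.toFinset_card_le _).trans
        ((Polynomial.card_roots' _).trans (le_of_eq (Polynomial.natDegree_X_pow_sub_C))))
  have h2 := hq.two_le
  have h8 : 8 ≤ q ^ 3 := le_trans (by norm_num) (Nat.pow_le_pow_left h2 3)
  have hmem : ∀ a, (⟨(z a 1 : L), (z a 0 : L)⟩ : Σ _ : L, L) ∈ S := by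
    intro a
    obtain ⟨e1, e2, e3, e4⟩ := eqs a
    have f1 : (z a 1 : L)⁻¹ = (z a 1 : L) ^ q := by
      simpa [hψ] using congrArg Units.val e1
    have f2 : (z a 1 : L) * z a 2 = (z a 0 : L) ^ q := by simpa [hψ] using congrArg Units.val e2
    have f3 : (z a 1 : L) * z a 3 = (z a 2 : L) ^ q := by simpa [hψ] using congrArg Units.val e3
    have f4 : (z a 0 : L) * z a 1 = (z a 3 : L) ^ q := by simpa [hψ] using congrArg Units.val e4
    have hv0 : (z a 1 : L) ≠ 0 := (z a 1).ne_zero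
    refine Finset.mem_sigma.2 ⟨?_, ?_⟩
    · rw [Multiset.mem_toFinset, Polynomial.mem_roots (Polynomial.X_pow_sub_C_ne_zero (by omega) 1)]
      simp [pow_succ, ← f1, hv0]
    · rw [Multiset.mem_toFinset,
        Polynomial.mem_roots (Polynomial.X_pow_sub_C_ne_zero (by omega) _)]
      have key : (z a 0 : L) ^ q ^ 3 = (z a 1 : L) ^ (q ^ 2 + q + 1) * z a 0 := by
        rw [show q ^ 3 = q * q * q by ring, pow_mul, pow_mul, ← f2, mul_pow, ← f3, mul_pow, mul_pow,
          ← f4]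
        ring
      simp only [p0, Polynomial.IsRoot, Polynomial.eval_sub, Polynomial.eval_pow, Polynomial.eval_X,
        Polynomial.eval_C, sub_eq_zero]
      refine mul_right_cancel₀ (z a 0).ne_zero ?_
      rw [← pow_succ, Nat.sub_add_cancel (by omega), key]
  have hinj' : Function.Injective
      (fun a => (⟨⟨(z a 1 : L), (z a 0 : L)⟩, hmem a⟩ : S)) := by
    intro a b e
    have e' := congrArg (fun x : S => x.1) e
    simp only [Sigma.mk.injEq, heq_eq_eq] at e'
    have k1 : z a 1 = z b 1 := Units.ext e'.1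
    have k0 : z a 0 = z b 0 := Units.ext e'.2
    have k2 : z a 2 = z b 2 :=
      mul_left_cancel (a := z a 1) (by rw [(eqs a).2.1, k0, k1, ← (eqs b).2.1])
    have k3 : z a 3 = z b 3 :=
      mul_left_cancel (a := z a 1) (by rw [(eqs a).2.2.1, k2, k1, ← (eqs b).2.2.1])
    refine hinj a b (sysD4.dg_congr fun i hi => ?_)
    have : i < 4 := hi
    interval_cases i <;> assumption
  exact (Nat.card_le_card_of_injective _ hinj').trans (by simpa using hS)

end Twist

end CfsgLib.Chev.D4Torus
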