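import Mathlib.RingTheory.Coprime.Lemmas
import Mathlib.Tactic

/-!
# The characters of the torus of order `(q³ - 1)(q + 1)` of `³D₄(q)`

The root `r` sends a generator `y` of the torus to `y ^ R(r)(q)`.
-/

set_option autoImplicit false
set_option synthInstance.maxSize 4000
set_option synthInstance.maxHeartbeats 400000

namespace CfsgLib.Chev.D4Torus

/-- A cubic with given coefficients. -/
def ev (c : ℤ × ℤ × ℤ × ℤ) (x : ℤ) : ℤ := c.1 + c.2.1 * x + c.2.2.1 * x ^ 2 + c.2.2.2 * x ^ 3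

/-- The exponents of the 24 roots. -/
def RL : List (ℤ × ℤ × ℤ × ℤ) :=
  [(-1, -1, -1, 0), (0, -1, -1, -1), (-3, -2, 2, 1), (1, 2, -2, -3), (-2, 1, 1, -1), (-1, 1, 1, -2),
   (1, -2, -2, 1), (-2, -3, 1, 3), (2, 1, -3, -1), (-1, 0, 0, 1), (-1, -3, 1, 2), (3, 1, -3, -2),
   (-3, -1, 3, 2), (1, 3, -1, -2), (1, 0, 0, -1), (-2, -1, 3, 1), (2, 3, -1, -3), (-1, 2, 2, -1),
   (1, -1, -1, 2), (2, -1, -1, 1), (-1, -2, 2, 3), (3, 2, -2, -1), (0, 1, 1, 1), (1, 1, 1, 0)]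

/-- The exponent of a root. -/
def R (q : ℕ) (r : ℕ) : ℤ := ev (RL.getD r 0) q

/-- The order of the torus. -/
def M (q : ℕ) : ℤ := ((q : ℤ) + 1) * ((q : ℤ) ^ 3 - 1)

/-- The two possible coincidences. -/
def Exc (r s : ℕ) : Prop :=
  r = s ∨ (r ∈ [0, 14, 22] ∧ s ∈ [0, 14, 22]) ∨ (r ∈ [1, 9, 23] ∧ s ∈ [1, 9, 23])

instance (r s : ℕ) : Decidable (Exc r s) := by unfold Exc; infer_instance

theorem small_dist : ∀ q < 8, 2 ≤ q → ∀ r < 24, ∀ s < 24,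
    (R q r - R q s) % M q = 0 → Exc r s := by
  unfold R M Exc ev
  decide +kernel

theorem small_ne : ∀ q < 8, 2 ≤ q → ∀ r < 24, R q r % M q ≠ 0 := by
  unfold R M ev
  decide +kernel

theorem diff_bound : ∀ r < 24, ∀ s < 24, r ≠ s →
    RL.getD r 0 - RL.getD s 0 ≠ 0 ∧ |(RL.getD r 0 - RL.getD s 0).1| ≤ 6 ∧
    |(RL.getD r 0 - RL.getD s 0).2.1| ≤ 6 ∧ |(RL.getD r 0 - RL.getD s 0).2.2.1| ≤ 6 ∧
    |(RL.getD r 0 - RL.getD s 0).2.2.2| ≤ 6 := by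
  decide +kernel

theorem coef_bound : ∀ r < 24, RL.getD r 0 ≠ 0 ∧ |(RL.getD r 0).1| ≤ 6 ∧
    |(RL.getD r 0).2.1| ≤ 6 ∧ |(RL.getD r 0).2.2.1| ≤ 6 ∧ |(RL.getD r 0).2.2.2| ≤ 6 := by
  decide +kernel

theorem not_dvd_ev {q : ℕ} (hq : 8 ≤ q) {c : ℤ × ℤ × ℤ × ℤ} (h0 : c ≠ 0) (h1 : |c.1| ≤ 6)
    (h2 : |c.2.1| ≤ 6) (h3 : |c.2.2.1| ≤ 6) (h4 : |c.2.2.2| ≤ 6) : ¬ M q ∣ ev c q := by
  obtain ⟨a, b, d, e⟩ := c
  simp only at h1 h2 h3 h4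
  set x : ℤ := (q : ℤ) with hx
  have hx8 : 8 ≤ x := by omega
  rw [abs_le] at h1 h2 h3 h4
  intro hdvd
  have hM : M q = (x + 1) * (x ^ 3 - 1) := rfl
  have z : ∀ a t : ℤ, -6 ≤ a → a ≤ 6 → a + x * t = 0 → a = 0 ∧ t = 0 := by
    intro a t g1 g2 h
    obtain ⟨ht1, ht2⟩ : -1 < t ∧ t < 1 := ⟨by nlinarith, by nlinarith⟩
    obtain rfl : t = 0 := by omega
    exact ⟨by linarith, rfl⟩
  have hzero : ev (a, b, d, e) x = 0 := by
    refine Int.eq_zero_of_abs_lt_dvd hdvd ?_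
    rw [hM, abs_lt]
    simp only [ev]
    have p1 : 0 ≤ x := by omega
    have p2 : (0 : ℤ) ≤ x ^ 2 := by positivity
    have p3 : (0 : ℤ) ≤ x ^ 3 := by positivity
    constructor <;> nlinarith [mul_le_mul_of_nonneg_right h2.1 p1, mul_le_mul_of_nonneg_right h2.2 p1,
      mul_le_mul_of_nonneg_right h3.1 p2, mul_le_mul_of_nonneg_right h3.2 p2,
      mul_le_mul_of_nonneg_right h4.1 p3, mul_le_mul_of_nonneg_right h4.2 p3,
      mul_le_mul_of_nonneg_left hx8 p1, mul_le_mul_of_nonneg_left hx8 p2,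
      mul_le_mul_of_nonneg_left hx8 p3]
  have e1 : a + x * (b + x * (d + x * e)) = 0 := by rw [← hzero, ev]; ring
  obtain ⟨rfl, e2⟩ := z _ _ h1.1 h1.2 e1
  obtain ⟨rfl, e3⟩ := z _ _ h2.1 h2.2 e2
  obtain ⟨rfl, e4⟩ := z _ _ h3.1 h3.2 e3
  subst e4
  exact h0 rfl

theorem dist {q : ℕ} (hq : 2 ≤ q) {r s : ℕ} (hr : r < 24) (hs : s < 24)
    (h : M q ∣ R q r - R q s) : Exc r s := by
  by_cases h8 : q < 8
  · exact small_dist q h8 hq r hr s hs (Int.emod_eq_zero_of_dvd h)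
  by_contra hne
  obtain ⟨a, b, c, d, e⟩ := diff_bound r hr s hs fun e => hne (Or.inl e)
  refine not_dvd_ev (not_lt.1 h8) a b c d e ?_
  convert h using 1
  simp only [R, ev, Prod.fst_sub, Prod.snd_sub]
  ring

theorem ne_zero {q : ℕ} (hq : 2 ≤ q) {r : ℕ} (hr : r < 24) : ¬ M q ∣ R q r := by
  by_cases h8 : q < 8
  · exact fun h => small_ne q h8 hq r hr (Int.emod_eq_zero_of_dvd h)
  obtain ⟨a, b, c, d, e⟩ := coef_bound r hr
  exact not_dvd_ev (not_lt.1 h8) a b c d e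

theorem coprime_E (x : ℤ) : IsCoprime (1 - x - x ^ 2 + 2 * x ^ 3) (1 - x ^ 3) := by
  have h1 : IsCoprime (x ^ 2 + x - 3) (x - 1) := ⟨-1, x + 2, by ring⟩
  have h2 : IsCoprime (x ^ 2 + x - 3) (x ^ 2 + x + 1) := by
    obtain ⟨j, hj⟩ : ∃ j, x ^ 2 + x - 3 = 2 * j + 1 := by
      obtain ⟨i, hi | hi⟩ := Int.even_or_odd' x
      · exact ⟨2 * i ^ 2 + i - 2, by rw [hi]; ring⟩
      · exact ⟨2 * i ^ 2 + 3 * i - 1, by rw [hi]; ring⟩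
    have h4 : IsCoprime (x ^ 2 + x - 3) 4 :=
      ⟨(2 * j + 1) , -(j * (j + 1)), by rw [hj]; ring⟩
    have : x ^ 2 + x + 1 = 4 + 1 * (x ^ 2 + x - 3) := by ring
    rw [this]
    exact h4.add_mul_right_right 1
  have h3 := h1.mul_right h2
  obtain ⟨a, b, h⟩ := h3
  exact ⟨-a, -2 * a - b, by linear_combination h⟩

end CfsgLib.Chev.D4Torus
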