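import Cfsg.Agent.Chev.D4Torus.Exponents
import Cfsg.Agent.Chev.Twisted.D4
import Cfsg.Agent.Chev.SL2Hom
import Cfsg.Agent.Chev.D4Even.TorusChar
import Mathlib.FieldTheory.IsAlgClosed.AlgebraicClosure

/-!
# A cyclic self-centralising torus of order `(q³ - 1)(q + 1)` in `³D₄(q)`
-/

set_option autoImplicit false
set_option linter.unusedSectionVars false
set_option maxRecDepth 100000

namespace CfsgLib.Chev.D4Torus

open Cfsg.Lie CfsgLib.Chev Matrix CfsgLib.Chev.Twisted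

universe u

variable {L : Type u} [Field L]

/-- Root elements. -/
noncomputable abbrev X (r : ℕ) (t : L) : GL chevD4.Idx L := sysD4.xU r t

theorem vec_table : ∀ r < 24, ∀ i < 4, sysD4.{u}.vec r i =
    ([[-1, -2, -1, -1], [-1, -1, -1, -1], [-1, -1, -1, 0], [-1, -1, 0, -1], [-1, -1, 0, 0],
     [-1, 0, 0, 0], [0, -1, -1, -1], [0, -1, -1, 0], [0, -1, 0, -1], [0, -1, 0, 0], [0, 0, -1, 0],
     [0, 0, 0, -1], [0, 0, 0, 1], [0, 0, 1, 0], [0, 1, 0, 0], [0, 1, 0, 1], [0, 1, 1, 0],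
     [0, 1, 1, 1], [1, 0, 0, 0], [1, 1, 0, 0], [1, 1, 0, 1], [1, 1, 1, 0], [1, 1, 1, 1],
     [1, 2, 1, 1]].getD r []).getD i 0 := by
  decide +kernel

theorem chi_eq (z : ℕ → Lˣ) (r : ℕ) :
    sysD4.chi z r = z 0 ^ sysD4.{u}.vec r 0 * z 1 ^ sysD4.{u}.vec r 1 * z 2 ^ sysD4.{u}.vec r 2 *
      z 3 ^ sysD4.{u}.vec r 3 := by
  show ∏ i ∈ Finset.range 4, z i ^ sysD4.{u}.vec r i = _
  simp [Finset.prod_range_succ]
  try rfl

theorem R_lin (q : ℕ) : ∀ r < 24, R q r = sysD4.{u}.vec r 0 * R q 18 + sysD4.{u}.vec r 1 * R q 14 +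
    sysD4.{u}.vec r 2 * R q 13 + sysD4.{u}.vec r 3 * R q 12 := by
  intro r hr
  rw [vec_table.{u} r hr 0 (by omega), vec_table.{u} r hr 1 (by omega),
    vec_table.{u} r hr 2 (by omega), vec_table.{u} r hr 3 (by omega)]
  interval_cases r <;> simp [R, RL, ev] <;> ring

/-- The character of the root `r` on the generator. -/
def zy (y : Lˣ) (q : ℕ) : ℕ → Lˣ := fun i => y ^ R q ([18, 14, 13, 12].getD i 0)

theorem chi_zy (y : Lˣ) (q : ℕ) {r : ℕ} (hr : r < 24) : sysD4.chi (zy y q) r = y ^ R q r := by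
  rw [chi_eq, R_lin.{u} q r hr]
  simp only [zy, List.getD_cons_zero, List.getD_cons_succ, ← _root_.zpow_mul, ← _root_.zpow_add]
  congr 1
  ring

/-- The characters of torus elements conjugate by a monomial element. -/
theorem chi_acts {n : GL chevD4.Idx L} {w : Equiv.Perm (Fin chevD4.nroots)} (hwa : sysD4.Acts n w)
    {z' z'' : ℕ → Lˣ} (e : sysD4.dg z' * n = n * sysD4.dg z'') (r : Fin chevD4.nroots) :
    sysD4.chi z'' r = sysD4.chi z' (w r : Fin chevD4.nroots) := by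
  obtain ⟨c, hc⟩ := hwa r
  have k1 := hc (sysD4.chi z'' r : L)
  have k2 : n * sysD4.xU (r : ℕ) (sysD4.chi z'' r : L) * n⁻¹ =
      sysD4.dg z' * (n * sysD4.xU (r : ℕ) (1 : L) * n⁻¹) * (sysD4.dg z')⁻¹ := by
    have := sysD4.dg_conj_xU z'' r.2 (1 : L)
    rw [mul_one] at this
    rw [← this, show sysD4.dg z' * (n * sysD4.xU (r : ℕ) (1 : L) * n⁻¹) * (sysD4.dg z')⁻¹ =
      (sysD4.dg z' * n) * sysD4.xU (r : ℕ) (1 : L) * (sysD4.dg z' * n)⁻¹ by group, e]
    group
  rw [k2, hc 1, mul_one, sysD4.dg_conj_xU z' (Fin.is_lt _)] at k1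
  have k3 := sysD4.coef_eq (Fin.is_lt _) k1
  rw [mul_comm (c : L)] at k3
  exact (Units.ext (mul_right_cancel₀ c.ne_zero k3)).symm

/-- The centraliser of a regular element of the torus is the torus. -/
theorem mem_diag_of_commute {z : ℕ → Lˣ} (h1 : ∀ r < 24, 12 ≤ r → sysD4.chi z r ≠ 1)
    (hw : ∀ n ∈ chevD4.monomialSubgroup L, ∀ w ∈ sysD4.{u}.weyl, sysD4.Acts n w →
      (∀ r : Fin chevD4.nroots, sysD4.chi z (w r : Fin chevD4.nroots) = sysD4.chi z r) → w = 1)
    {g : GL chevD4.Idx L} (hg : g ∈ chevD4.group L) (hc : g * sysD4.dg z = sysD4.dg z * g)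
    (hz : sysD4.dg z ∈ chevD4.diagonalSubgroup L) : g ∈ chevD4.diagonalSubgroup L := by
  obtain ⟨b, hb, n, hn, w, hwW, hwa, x, hx, rfl⟩ := sysD4.exists_normal_form hg
  set t := sysD4.dg z with ht
  set d := t * n * t⁻¹ * n⁻¹ with hd
  have hdd : d ∈ chevD4.diagonalSubgroup L := by
    rw [hd, show t * n * t⁻¹ * n⁻¹ = t * (n * t⁻¹ * n⁻¹) by group]
    exact mul_mem hz (sysD4.mono_conj_diag hn (inv_mem hz))
  have hfix : ∀ v ∈ chevD4.posUnipotent L, t * v * t⁻¹ = v → v = 1 := by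
    intro v hv e
    rw [sysD4.posUnipotent_eq] at hv
    obtain ⟨c, -, rfl⟩ := sysD4.exists_prodFrom le_rfl hv
    have e' : t * sysD4.prodFrom c (chevD4.nroots / 2) * t⁻¹ =
        sysD4.prodFrom (fun r => (sysD4.chi z r : L) * c r) (chevD4.nroots / 2) := by
      show (MulAut.conj t).toMonoidHom _ = _
      rw [Sys.prodFrom, Sys.prodFrom, Sys.wU, Sys.wU, map_list_prod]
      simp only [List.map_map]
      congr 1
      refine List.map_congr_left fun r hr => ?_
      rw [List.mem_range'_1] at hr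
      show t * sysD4.xU r (c r) * t⁻¹ = _
      exact sysD4.dg_conj_xU z (show r < chevD4.nroots by omega) _
    rw [e'] at e
    have key := sysD4.prodFrom_inj le_rfl e
    rw [sysD4.prodFrom_congr (t' := fun _ => (0 : L)) fun r h1' h2' => ?_]
    · rw [Sys.prodFrom, Sys.wU]
      refine List.prod_eq_one fun v hv => ?_
      obtain ⟨p, hp, rfl⟩ := List.mem_map.1 hv
      obtain ⟨r, -, rfl⟩ := List.mem_map.1 hp
      simp
    · have := key r h1' h2'
      by_contra hne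
      exact h1 r h2' h1' (Units.ext (mul_left_eq_self₀.1 this |>.resolve_right hne))
  have hxU : x ∈ chevD4.posUnipotent L := sysD4.genBy_le_pos _ hx
  have htx : t * x * t⁻¹ ∈ sysD4.uminus L w := by
    have hle : sysD4.uminus L w ≤ (sysD4.uminus L w).comap (MulAut.conj t).toMonoidHom :=
      sysD4.genBy_le fun r a1 a2 a3 s => by
        show t * sysD4.xU r s * t⁻¹ ∈ sysD4.uminus L w
        rw [sysD4.dg_conj_xU z a2]
        exact sysD4.xU_mem_genBy a1 a2 a3 _
    exact hle hx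
  have hbor : t * b * t⁻¹ * d ∈ chevD4.borelSubgroup L := by
    have hle : chevD4.diagonalSubgroup L ≤ chevD4.borelSubgroup L := le_sup_right
    exact mul_mem (mul_mem (mul_mem (hle hz) hb) (inv_mem (hle hz))) (hle hdd)
  have e : (t * b * t⁻¹ * d) * n * (t * x * t⁻¹) = b * n * x := by
    rw [show (t * b * t⁻¹ * d) * n * (t * x * t⁻¹) = t * (b * n * x) * t⁻¹ by rw [hd]; group, ← hc]
    group
  obtain ⟨eb, ex⟩ := sysD4.normal_form_unique hwa hbor hb htx hx e
  obtain rfl : x = 1 := hfix x hxU ex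
  obtain ⟨v, hv, h, hh, rfl⟩ := sysD4.mem_borel_iff.1 hb
  have hcomm : t * h * t⁻¹ = h := by
    obtain ⟨z', rfl⟩ := sysD4.exists_dg hh
    rw [ht, ← sysD4.dg_mul, mul_comm z z', sysD4.dg_mul, mul_inv_cancel_right]
  have e2 : (t * v * t⁻¹) * (h * d) = v * h := by
    rw [← mul_assoc, show t * v * t⁻¹ * h = t * v * t⁻¹ * (t * h * t⁻¹) by rw [hcomm],
      show t * v * t⁻¹ * (t * h * t⁻¹) = t * (v * h) * t⁻¹ by group]
    exact eb
  have htv : t * v * t⁻¹ ∈ chevD4.posUnipotent L := sysD4.diag_conj_pos hz hv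
  have hdiag : ∀ g ∈ chevD4.diagonalSubgroup L, ∀ a b, a ≠ b →
      (g : Matrix chevD4.Idx chevD4.Idx L) a b = 0 := by
    intro g hg a b hab
    obtain ⟨z', rfl⟩ := sysD4.exists_dg hg
    rw [Sys.coe_dg, Matrix.diagonal_apply_ne _ hab]
  have h3 : v⁻¹ * (t * v * t⁻¹) = 1 := by
    refine sysD4.eq_one_of_pos_diag (mul_mem (inv_mem hv) htv) ?_
    rw [show v⁻¹ * (t * v * t⁻¹) = h * (h * d)⁻¹ by
      rw [eq_mul_inv_iff_mul_eq, mul_assoc, e2, inv_mul_cancel_left]]
    exact hdiag _ (mul_mem hh (inv_mem (mul_mem hh hdd)))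
  obtain rfl : v = 1 := hfix v hv (inv_mul_eq_one.1 h3).symm
  have hd1 : d = 1 := by simpa using e2
  have htn : t * n = n * t := by
    rw [hd, mul_inv_eq_one, mul_inv_eq_iff_eq_mul] at hd1
    exact hd1
  have hw1 : w = 1 := hw n hn w hwW hwa fun r => (chi_acts hwa htn r).symm
  subst hw1
  rw [mul_one, one_mul]
  exact mul_mem hh (sysD4.mem_diag_of_pos hn hwa fun r hr => by simpa using hr)

section

variable (y : Lˣ) {q : ℕ} (hq : 2 ≤ q) (hy : (orderOf y : ℤ) = M q)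

include hq hy

theorem zpow_eq_iff {a b : ℤ} : y ^ a = y ^ b ↔ M q ∣ a - b := by
  rw [← hy, orderOf_dvd_sub_iff_zpow_eq_zpow]

theorem chi_zy_ne {r : ℕ} (hr : r < 24) : sysD4.chi (zy y q) r ≠ 1 := by
  rw [chi_zy y q hr, ← _root_.zpow_zero y, Ne, zpow_eq_iff y hq hy, sub_zero]
  exact ne_zero hq hr

theorem stab_zy {n : GL chevD4.Idx L} (hn : n ∈ chevD4.monomialSubgroup L)
    {w : Equiv.Perm (Fin chevD4.nroots)} (hwW : w ∈ sysD4.{u}.weyl) (hwa : sysD4.Acts n w)
    (h : ∀ r : Fin chevD4.nroots, sysD4.chi (zy y q) (w r : Fin chevD4.nroots) = sysD4.chi (zy y q) r) :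
    w = 1 := by
  have hE : ∀ r : Fin 24, Exc ((w r : Fin chevD4.nroots) : ℕ) (r : ℕ) := fun r => by
    have e := h r
    rw [chi_zy y q (w r).2, chi_zy y q r.2, zpow_eq_iff y hq hy] at e
    exact dist hq (w r).2 r.2 e
  have h18 := hE 18
  have h13 := hE 13
  have h12 := hE 12
  have h19 := hE 19
  have h14 := hE 14
  simp [Exc] at h18 h13 h12 h19 h14
  have h14' : ((w (14 : Fin 24) : Fin chevD4.nroots) : ℕ) ≠ 0 := by
    intro h0
    set z' : ℕ → Lˣ := hz chevD4 (chevD4.simple 0) y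
    have hzd : sysD4.dg z' ∈ chevD4.diagonalSubgroup L := by
      show sysD4.dg (hz chevD4 (chevD4.simple ((⟨0, by decide⟩ : Fin chevD4.rank) : ℕ)) y) ∈ _
      rw [← sysD4.theta_single]
      exact sysD4.theta_mem_diag _
    obtain ⟨z'', hz''⟩ := sysD4.exists_dg (sysD4.mono_conj_diag (inv_mem hn) hzd)
    rw [inv_inv] at hz''
    have key := chi_acts hwa (z' := z') (z'' := z'') (by rw [← hz'']; group)
    have hv : ∀ r < 24, sysD4.chi z' r = y ^ chevD4.cartan 0 r := fun r hr =>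
      sysD4.chi_hz_simple (by decide) y (show r < chevD4.nroots from hr)
    have t : chevD4.cartan 0 0 = 0 ∧ chevD4.cartan 0 18 = 2 ∧ chevD4.cartan 0 19 = 1 := by
      decide +kernel
    have k18 := key (18 : Fin 24)
    have k14 := key (14 : Fin 24)
    have k19 := key (19 : Fin 24)
    rw [h18, hv 18 (by omega), t.2.1] at k18
    rw [h0, hv 0 (by omega), t.1] at k14
    rw [h19, hv 19 (by omega), t.2.2] at k19
    have hsplit : sysD4.chi z'' 19 = sysD4.chi z'' 18 * sysD4.chi z'' 14 := by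
      rw [chi_eq, chi_eq, chi_eq]
      simp [vec_table.{u} 19 (by omega) 0 (by omega), vec_table.{u} 19 (by omega) 1 (by omega),
        vec_table.{u} 19 (by omega) 2 (by omega), vec_table.{u} 19 (by omega) 3 (by omega),
        vec_table.{u} 18 (by omega) 0 (by omega), vec_table.{u} 18 (by omega) 1 (by omega),
        vec_table.{u} 18 (by omega) 2 (by omega), vec_table.{u} 18 (by omega) 3 (by omega),
        vec_table.{u} 14 (by omega) 0 (by omega), vec_table.{u} 14 (by omega) 1 (by omega),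
        vec_table.{u} 14 (by omega) 2 (by omega), vec_table.{u} 14 (by omega) 3 (by omega)]
    have e : y ^ (1 : ℤ) = y ^ (2 : ℤ) := by
      rw [← k19, show sysD4.chi z'' ((19 : Fin 24) : ℕ) = sysD4.chi z'' 19 from rfl, hsplit,
        show sysD4.chi z'' 18 = y ^ (2 : ℤ) from k18, show sysD4.chi z'' 14 = y ^ (0 : ℤ) from k14]
      simp
    rw [zpow_eq_iff y hq hy] at e
    have hle := Int.le_of_dvd one_pos (dvd_neg.1 (by simpa using e))
    have hq' : (2 : ℤ) ≤ q := by exact_mod_cast hq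
    simp only [M] at hle
    have : (8 : ℤ) ≤ (q : ℤ) ^ 3 := le_trans (by norm_num) (pow_le_pow_left₀ (by norm_num) hq' 3)
    nlinarith
  refine sysD4.eq_one_of_simple_pos hwW fun i => ?_
  show 12 ≤ ((w (sysD4.sr i) : Fin chevD4.nroots) : ℕ)
  obtain ⟨i, hi⟩ := i
  have : i < 4 := hi
  interval_cases i
  · show 12 ≤ ((w (18 : Fin 24) : Fin chevD4.nroots) : ℕ)
    omega
  · show 12 ≤ ((w (14 : Fin 24) : Fin chevD4.nroots) : ℕ)
    omega
  · show 12 ≤ ((w (13 : Fin 24) : Fin chevD4.nroots) : ℕ)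
    omega
  · show 12 ≤ ((w (12 : Fin 24) : Fin chevD4.nroots) : ℕ)
    omega

end

end CfsgLib.Chev.D4Torus
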